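import Cfsg.Agent.H33.B22.Q22
import Cfsg.Agent.H33.B22.CLDataQ
import Cfsg.Agent.H33.Blk.CL
import Cfsg.Prelude.Def_Spor_Mathieu

/-!
# Conjugacy classes of `M22` up to inversion (helper33)

`clQ_main`: every element of `M22` (the stabiliser of `none` and `some 0` in `M24`) is conjugate in
`M22` to one of the 10 representatives `rhoQ j` or to its inverse.  The proof conjugates the two
fixed points and three suitable points to the base points (5-transitivity of `M24`) and looks the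
resulting element up in a table of explicit conjugators.
-/

set_option autoImplicit false

namespace Cfsg.Agent.H33.B22

open Cfsg Cfsg.Spor Cfsg.Agent.H9 Cfsg.Agent.H33 Cfsg.Agent.H94 Cfsg.Agent.H33.Blk

theorem gPt_23 : gPt 23 = none := rfl

theorem gPt_0 : gPt 0 = some 0 := by
  unfold gPt
  rw [if_pos (by norm_num)]
  rfl

theorem mem_M22 {g : Equiv.Perm GolayPt} :
    g ∈ M22 ↔ g ∈ M24 ∧ g none = none ∧ g (some 0) = some 0 := by
  constructor
  · rintro ⟨⟨h1, h2⟩, h3⟩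
    exact ⟨h1, h2, h3⟩
  · rintro ⟨h1, h2, h3⟩
    exact ⟨⟨h1, h2⟩, h3⟩

/-- the packed permutation `t` fixes the indices `0` and `23` -/
def fAB (t : ℕ) : Bool := Nat.beq (lk t 0) 0 && Nat.beq (lk t 23) 23

theorem fAB_iff {t : ℕ} {g : Equiv.Perm GolayPt} (h : Rep t g) :
    fAB t = true ↔ g none = none ∧ g (some 0) = some 0 := by
  have h0 : g (some 0) = gPt (lk t 0) := by
    rw [← gPt_0]; exact rep_apply h (by norm_num)
  have h23 : g none = gPt (lk t 23) := by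
    rw [← gPt_23]; exact rep_apply h (by norm_num)
  have l0 : lk t 0 < 24 := by
    have := h (some 0)
    have e : gIdx (some 0 : GolayPt) = 0 := rfl
    rw [e] at this
    rw [← this]; exact gIdx_lt _
  have l23 : lk t 23 < 24 := by
    have := h none
    have e : gIdx (none : GolayPt) = 23 := rfl
    rw [e] at this
    rw [← this]; exact gIdx_lt _
  unfold fAB
  rw [Bool.and_eq_true]
  constructor
  · rintro ⟨a, b⟩
    rw [h23, h0, Nat.eq_of_beq_eq_true a, Nat.eq_of_beq_eq_true b]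
    exact ⟨gPt_23, gPt_0⟩
  · rintro ⟨a, b⟩
    rw [h23, ← gPt_23] at a
    rw [h0, ← gPt_0] at b
    have a' := congrArg gIdx a
    have b' := congrArg gIdx b
    rw [gIdx_gPt l23, gIdx_gPt (by norm_num)] at a'
    rw [gIdx_gPt l0, gIdx_gPt (by norm_num)] at b'
    rw [a', b']
    exact ⟨rfl, rfl⟩

/-! ### the representatives -/

theorem RRQ_ok : allB (fun j => chkInv (fldG RRQ j) (fldG RRQI j) && (chkM24 (fldG RRQ j) &&
    fAB (fldG RRQ j))) 10 = true := by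
  decide +kernel

theorem RRQ_chk {j : ℕ} (hj : j < 10) : chkInv (fldG RRQ j) (fldG RRQI j) = true := by
  have h := (allB_iff _ _).mp RRQ_ok j hj
  simp only [Bool.and_eq_true] at h
  exact h.1

theorem RRQ_m24 {j : ℕ} (hj : j < 10) : chkM24 (fldG RRQ j) = true := by
  have h := (allB_iff _ _).mp RRQ_ok j hj
  simp only [Bool.and_eq_true] at h
  exact h.2.1

theorem RRQ_fAB {j : ℕ} (hj : j < 10) : fAB (fldG RRQ j) = true := by
  have h := (allB_iff _ _).mp RRQ_ok j hj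
  simp only [Bool.and_eq_true] at h
  exact h.2.2

/-- the representatives of the classes of `M22` up to inversion -/
def rhoQ (j : ℕ) : Equiv.Perm GolayPt :=
  if h : j < 10 then permOf (fldG RRQ j) (fldG RRQI j) (RRQ_chk h) else 1

theorem rhoQ_rep {j : ℕ} (hj : j < 10) : Rep (fldG RRQ j) (rhoQ j) := by
  unfold rhoQ
  rw [dif_pos hj]
  exact rep_permOf _ _ _

theorem rhoQ_rep_inv {j : ℕ} (hj : j < 10) : Rep (fldG RRQI j) (rhoQ j)⁻¹ := by
  unfold rhoQ
  rw [dif_pos hj]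
  exact rep_permOf_inv _ _ _

theorem rhoQ_mem (j : ℕ) : rhoQ j ∈ M22 := by
  by_cases hj : j < 10
  · rw [mem_M22]
    have h1 : rhoQ j ∈ M24 := by
      unfold rhoQ
      rw [dif_pos hj]
      exact permOf_mem_M24 _ _ _ (RRQ_m24 hj)
    exact ⟨h1, (fAB_iff (rhoQ_rep hj)).mp (RRQ_fAB hj)⟩
  · unfold rhoQ
    rw [dif_neg hj]
    exact one_mem _

/-- the packed targets: representatives and their inverses -/
def RTQ (τ : ℕ) : ℕ := bif Nat.blt τ 10 then fldG RRQ τ else fldG RRQI (Nat.sub τ 10)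

/-- the targets -/
def rhoTQ (τ : ℕ) : Equiv.Perm GolayPt := if τ < 10 then rhoQ τ else (rhoQ (τ - 10))⁻¹

theorem rep_RTQ {τ : ℕ} (h : τ < 20) : Rep (RTQ τ) (rhoTQ τ) := by
  unfold RTQ rhoTQ
  by_cases h10 : τ < 10
  · have hb : Nat.blt τ 10 = true := by rw [Nat.blt_eq]; exact h10
    rw [hb, if_pos h10]
    exact rhoQ_rep h10
  · have hb : Nat.blt τ 10 = false := by
      rw [Bool.eq_false_iff, Ne, Nat.blt_eq]; exact h10
    rw [hb, if_neg h10]
    have e : Nat.sub τ 10 = τ - 10 := rfl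
    simp only [cond_false, e]
    exact rhoQ_rep_inv (by omega)

/-! ### the tables -/

/-- `D` (with inverse `DI`) is an element of `M24` mapping the indices `0 ↦ 0`, `1 ↦ 23` and
conjugating `P` to `R` -/
def conjQ (D DI P R : ℕ) : Bool :=
  chkInv D DI && (chkM24 D && (allB (fun i => Nat.beq (lk D (lk P i)) (lk R (lk D i))) 24 &&
    (Nat.beq (lk D 0) 0 && Nat.beq (lk D 1) 23)))

theorem conj_of_Q {D DI P R : ℕ} {g r : Equiv.Perm GolayPt} (h : conjQ D DI P R = true)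
    (hP : Rep P g) (hR : Rep R r) :
    ∃ d ∈ M24, d (gPt 0) = gPt 0 ∧ d (gPt 1) = gPt 23 ∧ d * g * d⁻¹ = r := by
  unfold conjQ at h
  simp only [Bool.and_eq_true] at h
  obtain ⟨h1, h2, h3, h4, h5⟩ := h
  have hD : Rep D (permOf D DI h1) := rep_permOf D DI h1
  refine ⟨permOf D DI h1, permOf_mem_M24 D DI h1 h2, ?_, ?_, ?_⟩
  · rw [rep_apply hD (by norm_num), Nat.eq_of_beq_eq_true h4]
  · rw [rep_apply hD (by norm_num), Nat.eq_of_beq_eq_true h5]
  · rw [mul_inv_eq_iff_eq_mul]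
    refine Equiv.ext fun p => ?_
    apply gIdx_injective
    show gIdx (permOf D DI h1 (g p)) = gIdx (r (permOf D DI h1 p))
    rw [hD, hP, hR, hD]
    exact Nat.eq_of_beq_eq_true ((allB_iff _ _).mp h3 _ (gIdx_lt p))

/-- a table entry: `C` fixes the indices `0`, `1` and has the prescribed images of `2`, `3`, `4`,
and all elements of its coset of the stabiliser of the base points have conjugators to targets -/
def entQ (C CI D DI T q i2 i3 i4 : ℕ) : Bool :=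
  chkInv C CI && (chkM24 C && (Nat.beq (lk C 0) 0 && (Nat.beq (lk C 1) 1 &&
    (Nat.beq (lk C 2) i2 && (Nat.beq (lk C 3) i3 && (Nat.beq (lk C 4) i4 &&
      allB (fun j => Nat.blt (f8 T (Nat.add (Nat.mul q 48) j)) 20 &&
        conjQ (fldG D (Nat.add (Nat.mul q 48) j)) (fldG DI (Nat.add (Nat.mul q 48) j))
          (mulN C (fldG u5 j)) (RTQ (f8 T (Nat.add (Nat.mul q 48) j)))) 48))))))

theorem nfQ_of {C CI D DI T q i2 i3 i4 : ℕ} (h : entQ C CI D DI T q i2 i3 i4 = true)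
    {g : Equiv.Perm GolayPt} (hg : g ∈ M24) (h0 : g (gPt 0) = gPt 0) (h1 : g (gPt 1) = gPt 1)
    (h2 : g (gPt 2) = gPt i2) (h3 : g (gPt 3) = gPt i3) (h4 : g (gPt 4) = gPt i4) :
    ∃ d ∈ M24, d (gPt 0) = gPt 0 ∧ d (gPt 1) = gPt 23 ∧ ∃ τ < 20, d * g * d⁻¹ = rhoTQ τ := by
  unfold entQ at h
  simp only [Bool.and_eq_true] at h
  obtain ⟨hCI, hCm, e0, e1, e2, e3, e4, hall⟩ := h
  obtain ⟨j, hj, hrep⟩ := coset5 hCI hCm hg (fun i hi => by
    interval_cases i
    · rw [Nat.eq_of_beq_eq_true e0]; exact h0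
    · rw [Nat.eq_of_beq_eq_true e1]; exact h1
    · rw [Nat.eq_of_beq_eq_true e2]; exact h2
    · rw [Nat.eq_of_beq_eq_true e3]; exact h3
    · rw [Nat.eq_of_beq_eq_true e4]; exact h4)
  have hj' := (allB_iff _ _).mp hall j hj
  simp only [Bool.and_eq_true] at hj'
  obtain ⟨hτ, hcj⟩ := hj'
  rw [Nat.blt_eq] at hτ
  obtain ⟨d, hd, d0, d1, e⟩ := conj_of_Q hcj hrep (rep_RTQ hτ)
  exact ⟨d, hd, d0, d1, _, hτ, e⟩

set_option maxRecDepth 100000 in
theorem chkQ3 : allB (fun q => (Nat.beq q 0 || (Nat.beq q 1 || (Nat.beq q 3 || Nat.beq q 4))) ||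
    entQ (fldG CQ3 q) (fldG CQ3I q) DQ3 DQ3I TQ3 q 3 4 q) 24 = true := by decide +kernel

set_option maxRecDepth 100000 in
theorem chkQ2 : allB (fun q => (Nat.beq q 0 || (Nat.beq q 1 || (Nat.beq q 2 || Nat.beq q 3))) ||
    entQ (fldG CQ2 q) (fldG CQ2I q) DQ2 DQ2I TQ2 q 3 2 q) 24 = true := by decide +kernel

/-- normal form: `0`, `1` fixed, `2 → 3 → 4` -/
theorem nfQ3 {g : Equiv.Perm GolayPt} (hg : g ∈ M24) (h0 : g (gPt 0) = gPt 0)
    (h1 : g (gPt 1) = gPt 1) (h2 : g (gPt 2) = gPt 3) (h3 : g (gPt 3) = gPt 4) :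
    ∃ d ∈ M24, d (gPt 0) = gPt 0 ∧ d (gPt 1) = gPt 23 ∧ ∃ τ < 20, d * g * d⁻¹ = rhoTQ τ := by
  obtain ⟨q, hq⟩ : ∃ q, q = gIdx (g (gPt 4)) := ⟨_, rfl⟩
  have hq24 : q < 24 := by rw [hq]; exact gIdx_lt _
  have h4 : g (gPt 4) = gPt q := by rw [hq, gPt_gIdx]
  have hne : ∀ i i' : ℕ, i < 4 → i' < 24 → g (gPt i) = gPt i' → q ≠ i' := by
    intro i i' hi hi' e hcon
    rw [hcon, ← e] at h4
    exact gPt_ne (by norm_num : 4 < 24) (by omega : i < 24) (by omega) (g.injective h4)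
  have hc := (allB_iff _ _).mp chkQ3 q hq24
  rw [nbeq (hne 0 0 (by norm_num) (by norm_num) h0), nbeq (hne 1 1 (by norm_num) (by norm_num) h1),
    nbeq (hne 2 3 (by norm_num) (by norm_num) h2),
    nbeq (hne 3 4 (by norm_num) (by norm_num) h3)] at hc
  simp only [Bool.or_false, Bool.false_or] at hc
  exact nfQ_of hc hg h0 h1 h2 h3 h4

/-- normal form: `0`, `1` fixed, `2 ↔ 3` -/
theorem nfQ2 {g : Equiv.Perm GolayPt} (hg : g ∈ M24) (h0 : g (gPt 0) = gPt 0)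
    (h1 : g (gPt 1) = gPt 1) (h2 : g (gPt 2) = gPt 3) (h3 : g (gPt 3) = gPt 2) :
    ∃ d ∈ M24, d (gPt 0) = gPt 0 ∧ d (gPt 1) = gPt 23 ∧ ∃ τ < 20, d * g * d⁻¹ = rhoTQ τ := by
  obtain ⟨q, hq⟩ : ∃ q, q = gIdx (g (gPt 4)) := ⟨_, rfl⟩
  have hq24 : q < 24 := by rw [hq]; exact gIdx_lt _
  have h4 : g (gPt 4) = gPt q := by rw [hq, gPt_gIdx]
  have hne : ∀ i i' : ℕ, i < 4 → i' < 24 → g (gPt i) = gPt i' → q ≠ i' := by
    intro i i' hi hi' e hcon
    rw [hcon, ← e] at h4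
    exact gPt_ne (by norm_num : 4 < 24) (by omega : i < 24) (by omega) (g.injective h4)
  have hc := (allB_iff _ _).mp chkQ2 q hq24
  rw [nbeq (hne 0 0 (by norm_num) (by norm_num) h0), nbeq (hne 1 1 (by norm_num) (by norm_num) h1),
    nbeq (hne 3 2 (by norm_num) (by norm_num) h3),
    nbeq (hne 2 3 (by norm_num) (by norm_num) h2)] at hc
  simp only [Bool.or_false, Bool.false_or] at hc
  exact nfQ_of hc hg h0 h1 h2 h3 h4

/-! ### the classes -/

theorem ne_of_fix {g : Equiv.Perm GolayPt} {f y : GolayPt} (hf : g f = f) (hy : g y ≠ y) :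
    f ≠ y := fun e => hy (e ▸ hf)

theorem RRQ_0 : fldG RRQ 0 = idN := by decide +kernel

theorem rhoQ_0 : rhoQ 0 = 1 := by
  have h := rhoQ_rep (by norm_num : 0 < 10)
  rw [RRQ_0] at h
  exact rep_uniq h rep_idN

theorem rhoTQ_lt {τ : ℕ} (h : τ < 10) : rhoTQ τ = rhoQ τ := by
  unfold rhoTQ
  rw [if_pos h]

/-- conjugating to the base points: the conjugated element and the conjugator -/
theorem baseQ {g : Equiv.Perm GolayPt} (hg : g ∈ M24) (hA : g none = none)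
    (hB : g (some 0) = some 0) (x : Fin 5 ↪ GolayPt) (hx0 : x 0 = some 0) (hx1 : x 1 = none)
    (nf : ∀ g' : Equiv.Perm GolayPt, g' ∈ M24 → g' (gPt 0) = gPt 0 → g' (gPt 1) = gPt 1 →
      (∀ i i' : Fin 5, g (x i) = x i' → g' (gPt i) = gPt i') →
      ∃ d ∈ M24, d (gPt 0) = gPt 0 ∧ d (gPt 1) = gPt 23 ∧ ∃ τ < 20, d * g' * d⁻¹ = rhoTQ τ) :
    ∃ k ∈ M22, ∃ τ < 20, k * g * k⁻¹ = rhoTQ τ := by
  obtain ⟨a, ha, hax⟩ := exists_map_base5 x
  have hc : ∀ i i' : Fin 5, g (x i) = x i' → (a⁻¹ * g * a) (gPt i) = gPt i' := by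
    intro i i' h
    show a⁻¹ (g (a (gPt i))) = gPt i'
    rw [hax i, h, ← hax i']
    exact a.symm_apply_apply _
  have c0 : (a⁻¹ * g * a) (gPt 0) = gPt 0 := hc 0 0 (by rw [hx0]; exact hB)
  have c1 : (a⁻¹ * g * a) (gPt 1) = gPt 1 := hc 1 1 (by rw [hx1]; exact hA)
  obtain ⟨d, hd, d0, d1, τ, hτ, e⟩ := nf (a⁻¹ * g * a) (conj_mem ha hg) c0 c1 hc
  refine ⟨d * a⁻¹, ?_, τ, hτ, conj_trans e⟩
  rw [mem_M22]
  refine ⟨mul_mem hd (inv_mem ha), ?_, ?_⟩
  · show d (a⁻¹ none) = none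
    have h1 : a⁻¹ none = gPt 1 := by
      rw [← hx1, ← hax 1]
      exact a.symm_apply_apply _
    rw [h1, d1, gPt_23]
  · show d (a⁻¹ (some 0)) = some 0
    have h0 : a⁻¹ (some 0) = gPt 0 := by
      rw [← hx0, ← hax 0]
      exact a.symm_apply_apply _
    rw [h0, d0, gPt_0]

theorem clQ_aux {g : Equiv.Perm GolayPt} (hg : g ∈ M22) :
    ∃ k ∈ M22, ∃ τ < 20, k * g * k⁻¹ = rhoTQ τ := by
  obtain ⟨hg24, hA, hB⟩ := mem_M22.mp hg
  by_cases hX : ∃ p, g p ≠ p ∧ g (g p) ≠ p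
  · obtain ⟨p, h1, h2⟩ := hX
    have h1' : g (g p) ≠ g p := fun h => h1 (g.injective h)
    have h1'' : g (g (g p)) ≠ g (g p) := fun h => h1' (g.injective h)
    let x : Fin 5 ↪ GolayPt := ⟨![some 0, none, p, g p, g (g p)],
      inj5 (by simp) (ne_of_fix hB h1) (ne_of_fix hB h1') (ne_of_fix hB h1'')
        (ne_of_fix hA h1) (ne_of_fix hA h1') (ne_of_fix hA h1'')
        h1.symm h2.symm h1'.symm⟩
    refine baseQ hg24 hA hB x rfl rfl (fun g' hg' c0 c1 hc => ?_)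
    exact nfQ3 hg' c0 c1 (hc 2 3 rfl) (hc 3 4 rfl)
  · have hX' : ∀ p, g p ≠ p → g (g p) = p := fun p a => by
      by_contra b
      exact hX ⟨p, a, b⟩
    by_cases h1 : g = 1
    · refine ⟨1, one_mem _, 0, by norm_num, ?_⟩
      rw [rhoTQ_lt (by norm_num), rhoQ_0, h1]
      group
    · obtain ⟨p, hp⟩ : ∃ p, g p ≠ p := by
        by_contra hcon
        exact h1 (Equiv.ext fun p => by
          by_contra hp
          exact hcon ⟨p, hp⟩)
      have h2 : g (g p) = p := hX' p hp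
      have hp' : g (g p) ≠ g p := fun h => hp (g.injective h)
      obtain ⟨s, s0, s1, s2, s3⟩ := exists_fifth (some 0) none p (g p)
      let x : Fin 5 ↪ GolayPt := ⟨![some 0, none, p, g p, s],
        inj5 (by simp) (ne_of_fix hB hp) (ne_of_fix hB hp') s0.symm
          (ne_of_fix hA hp) (ne_of_fix hA hp') s1.symm
          hp.symm s2.symm s3.symm⟩
      refine baseQ hg24 hA hB x rfl rfl (fun g' hg' c0 c1 hc => ?_)
      exact nfQ2 hg' c0 c1 (hc 2 3 rfl) (hc 3 2 h2)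

/-- every element of `M22` is conjugate to a representative or to the inverse of one -/
theorem clQ_main {g : Equiv.Perm GolayPt} (hg : g ∈ M22) :
    ∃ k ∈ M22, ∃ j < 10, k * g * k⁻¹ = rhoQ j ∨ k * g * k⁻¹ = (rhoQ j)⁻¹ := by
  obtain ⟨k, hk, τ, hτ, e⟩ := clQ_aux hg
  by_cases h : τ < 10
  · exact ⟨k, hk, τ, h, Or.inl (by rw [e, rhoTQ_lt h])⟩
  · refine ⟨k, hk, τ - 10, by omega, Or.inr ?_⟩
    rw [e]
    unfold rhoTQ
    rw [if_neg h]

end Cfsg.Agent.H33.B22
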