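import Cfsg.Agent.H33.B22.PassQ
import Cfsg.Agent.H33.B22.ColDataQ

/-!
# Parity masks of the columns [7, 9] of `M22` (helper33; generated)
-/

set_option autoImplicit false

namespace Cfsg.Agent.H33.B22

open Cfsg Cfsg.Spor Cfsg.Agent.H9 Cfsg.Agent.H33 Cfsg.Agent.H94 Cfsg.Agent.H33.Blk
  Cfsg.Agent.S5608

theorem passQ_7 : passQ cBQ_7 = EQ_7 := by decide +kernel

theorem passQ_9 : passQ cBQ_9 = EQ_9 := by decide +kernel

theorem passQ_6 : passS KQ KQI cBQ_6 = EQ_6 := by decide +kernel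

end Cfsg.Agent.H33.B22
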