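import Cfsg.Agent.H33.B22.ColQP0
import Cfsg.Agent.H33.B22.ColQP1
import Cfsg.Agent.H33.B22.ColQP2

/-!
# The columns of the squares of the class sums of `M22` modulo 2 (helper33; generated)
-/

set_option autoImplicit false

namespace Cfsg.Agent.H33.B22

open Cfsg Cfsg.Spor Cfsg.Agent.H9 Cfsg.Agent.H33 Cfsg.Agent.H94 Cfsg.Agent.H33.Blk
  Cfsg.Agent.S5608

/-- the class representatives as elements of `M22` -/
def rhoH (j : ℕ) : ↥M22 := ⟨rhoQ j, rhoQ_mem j⟩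

theorem rhoH_rep {j : ℕ} (hj : j < 10) : Rep (fldG RRQ j) (rhoH j).1 := rhoQ_rep hj

/-! ### column 0 (class 1A) -/

theorem facQ_0 : chkInv cBQ_0 cBQI_0 = true ∧ chkM24 cBQ_0 = true ∧ fAB cBQ_0 = true ∧
    Nat.beq (mulN cBQ_0 cBQ_0) (fldG RRQ 0) = true := by decide +kernel

theorem colQ_0 [Fintype ↥M22] (κ : ℕ) :
    (Finset.univ.filter fun x : ↥M22 => cdH x = κ ∧ cdH (x⁻¹ * rhoH 0) = κ).card % 2
      = if (EQ_0).testBit κ = true then 1 else 0 :=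
  colQI_pack facQ_0.1 facQ_0.2.1 facQ_0.2.2.1 (Nat.eq_of_beq_eq_true facQ_0.2.2.2) passQ_0
    (rhoH_rep (by norm_num)) κ

/-! ### column 1 (class 2A) -/

theorem facQ_1 : chkInv cBQ_1 cBQI_1 = true ∧ chkM24 cBQ_1 = true ∧ fAB cBQ_1 = true ∧
    Nat.beq (mulN cBQ_1 cBQ_1) (fldG RRQ 1) = true := by decide +kernel

theorem colQ_1 [Fintype ↥M22] (κ : ℕ) :
    (Finset.univ.filter fun x : ↥M22 => cdH x = κ ∧ cdH (x⁻¹ * rhoH 1) = κ).card % 2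
      = if (EQ_1).testBit κ = true then 1 else 0 :=
  colQI_pack facQ_1.1 facQ_1.2.1 facQ_1.2.2.1 (Nat.eq_of_beq_eq_true facQ_1.2.2.2) passQ_1
    (rhoH_rep (by norm_num)) κ

/-! ### column 2 (class 3A) -/

theorem facQ_2 : chkInv cBQ_2 cBQI_2 = true ∧ chkM24 cBQ_2 = true ∧ fAB cBQ_2 = true ∧
    Nat.beq (mulN cBQ_2 cBQ_2) (fldG RRQ 2) = true := by decide +kernel

theorem colQ_2 [Fintype ↥M22] (κ : ℕ) :
    (Finset.univ.filter fun x : ↥M22 => cdH x = κ ∧ cdH (x⁻¹ * rhoH 2) = κ).card % 2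
      = if (EQ_2).testBit κ = true then 1 else 0 :=
  colQI_pack facQ_2.1 facQ_2.2.1 facQ_2.2.2.1 (Nat.eq_of_beq_eq_true facQ_2.2.2.2) passQ_2
    (rhoH_rep (by norm_num)) κ

/-! ### column 3 (class 4A) -/

theorem facQ_3 : chkInv cBQ_3 cBQI_3 = true ∧ chkM24 cBQ_3 = true ∧ fAB cBQ_3 = true ∧
    Nat.beq (mulN cBQ_3 cBQ_3) (fldG RRQ 3) = true := by decide +kernel

theorem colQ_3 [Fintype ↥M22] (κ : ℕ) :
    (Finset.univ.filter fun x : ↥M22 => cdH x = κ ∧ cdH (x⁻¹ * rhoH 3) = κ).card % 2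
      = if (EQ_3).testBit κ = true then 1 else 0 :=
  colQI_pack facQ_3.1 facQ_3.2.1 facQ_3.2.2.1 (Nat.eq_of_beq_eq_true facQ_3.2.2.2) passQ_3
    (rhoH_rep (by norm_num)) κ

/-! ### column 4 (class 4B) -/

theorem facQ_4 : fixN (pwN (fldG RRQ 4) (2 ^ 2)) = 24 ∧
    allB (fun i => !(Nat.beq (cdQN (mulN (fldG RRQ i) (fldG RRQ i))) (cdQN (fldG RRQ 4)))) 10
      = true := by decide +kernel

theorem colQ_4 [Fintype ↥M22] (κ : ℕ) :
    (Finset.univ.filter fun x : ↥M22 => cdH x = κ ∧ cdH (x⁻¹ * rhoH 4) = κ).card % 2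
      = if (EQ_4).testBit κ = true then 1 else 0 := by
  have h := colQN_pack 2 facQ_4.1 facQ_4.2 (rhoH_rep (by norm_num : 4 < 10)) κ
  rw [h, show EQ_4 = 0 from rfl, Nat.zero_testBit]
  rfl

/-! ### column 5 (class 5A) -/

theorem facQ_5 : chkInv cBQ_5 cBQI_5 = true ∧ chkM24 cBQ_5 = true ∧ fAB cBQ_5 = true ∧
    Nat.beq (mulN cBQ_5 cBQ_5) (fldG RRQ 5) = true := by decide +kernel

theorem colQ_5 [Fintype ↥M22] (κ : ℕ) :
    (Finset.univ.filter fun x : ↥M22 => cdH x = κ ∧ cdH (x⁻¹ * rhoH 5) = κ).card % 2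
      = if (EQ_5).testBit κ = true then 1 else 0 :=
  colQI_pack facQ_5.1 facQ_5.2.1 facQ_5.2.2.1 (Nat.eq_of_beq_eq_true facQ_5.2.2.2) passQ_5
    (rhoH_rep (by norm_num)) κ

/-! ### column 6 (class 6A) -/

theorem facQ_6 : chkInv (fldG RRQ 1) (fldG RRQ 1) = true ∧ chkInv cBQ_6 cBQI_6 = true ∧
    chkM24 cBQ_6 = true ∧ fAB cBQ_6 = true ∧ chkInv KQ KQI = true ∧ chkM24 KQ = true ∧
    Nat.beq (mulN KQ (mulN r8 KQI)) (fldG RRQ 1) = true ∧ commN (fldG RRQ 1) cBQ_6 = true ∧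
    Nat.beq (mulN (fldG RRQ 1) (mulN cBQ_6 cBQ_6)) (fldG RRQ 6) = true := by decide +kernel

theorem colQ_6 [Fintype ↥M22] (κ : ℕ) :
    (Finset.univ.filter fun x : ↥M22 => cdH x = κ ∧ cdH (x⁻¹ * rhoH 6) = κ).card % 2
      = if (EQ_6).testBit κ = true then 1 else 0 :=
  colQS_pack (c := rhoH 1) (rhoH_rep (by norm_num)) facQ_6.1 facQ_6.2.1 facQ_6.2.2.1
    facQ_6.2.2.2.1 facQ_6.2.2.2.2.1 facQ_6.2.2.2.2.2.1
    (Nat.eq_of_beq_eq_true facQ_6.2.2.2.2.2.2.1) facQ_6.2.2.2.2.2.2.2.1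
    (Nat.eq_of_beq_eq_true facQ_6.2.2.2.2.2.2.2.2) passQ_6 (rhoH_rep (by norm_num)) κ

/-! ### column 7 (class 7A) -/

theorem facQ_7 : chkInv cBQ_7 cBQI_7 = true ∧ chkM24 cBQ_7 = true ∧ fAB cBQ_7 = true ∧
    Nat.beq (mulN cBQ_7 cBQ_7) (fldG RRQ 7) = true := by decide +kernel

theorem colQ_7 [Fintype ↥M22] (κ : ℕ) :
    (Finset.univ.filter fun x : ↥M22 => cdH x = κ ∧ cdH (x⁻¹ * rhoH 7) = κ).card % 2
      = if (EQ_7).testBit κ = true then 1 else 0 :=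
  colQI_pack facQ_7.1 facQ_7.2.1 facQ_7.2.2.1 (Nat.eq_of_beq_eq_true facQ_7.2.2.2) passQ_7
    (rhoH_rep (by norm_num)) κ

/-! ### column 8 (class 8A) -/

theorem facQ_8 : fixN (pwN (fldG RRQ 8) (2 ^ 3)) = 24 ∧
    allB (fun i => !(Nat.beq (cdQN (mulN (fldG RRQ i) (fldG RRQ i))) (cdQN (fldG RRQ 8)))) 10
      = true := by decide +kernel

theorem colQ_8 [Fintype ↥M22] (κ : ℕ) :
    (Finset.univ.filter fun x : ↥M22 => cdH x = κ ∧ cdH (x⁻¹ * rhoH 8) = κ).card % 2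
      = if (EQ_8).testBit κ = true then 1 else 0 := by
  have h := colQN_pack 3 facQ_8.1 facQ_8.2 (rhoH_rep (by norm_num : 8 < 10)) κ
  rw [h, show EQ_8 = 0 from rfl, Nat.zero_testBit]
  rfl

/-! ### column 9 (class 11A) -/

theorem facQ_9 : chkInv cBQ_9 cBQI_9 = true ∧ chkM24 cBQ_9 = true ∧ fAB cBQ_9 = true ∧
    Nat.beq (mulN cBQ_9 cBQ_9) (fldG RRQ 9) = true := by decide +kernel

theorem colQ_9 [Fintype ↥M22] (κ : ℕ) :
    (Finset.univ.filter fun x : ↥M22 => cdH x = κ ∧ cdH (x⁻¹ * rhoH 9) = κ).card % 2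
      = if (EQ_9).testBit κ = true then 1 else 0 :=
  colQI_pack facQ_9.1 facQ_9.2.1 facQ_9.2.2.1 (Nat.eq_of_beq_eq_true facQ_9.2.2.2) passQ_9
    (rhoH_rep (by norm_num)) κ

/-- all columns -/
theorem colQ_all [Fintype ↥M22] : ∀ j < 10, ∀ κ : ℕ,
    (Finset.univ.filter fun x : ↥M22 => cdH x = κ ∧ cdH (x⁻¹ * rhoH j) = κ).card % 2
      = if (EtabQ j).testBit κ = true then 1 else 0 := by
  intro j hj κ
  interval_cases j
  · exact colQ_0 κ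
  · exact colQ_1 κ
  · exact colQ_2 κ
  · exact colQ_3 κ
  · exact colQ_4 κ
  · exact colQ_5 κ
  · exact colQ_6 κ
  · exact colQ_7 κ
  · exact colQ_8 κ
  · exact colQ_9 κ

end Cfsg.Agent.H33.B22
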