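import Cfsg.Agent.H33.B22.PassQ
import Cfsg.Agent.H33.B22.ColDataQ

/-!
# Parity masks of the columns [0, 1, 2] of `M22` (helper33; generated)
-/

set_option autoImplicit false

namespace Cfsg.Agent.H33.B22

open Cfsg Cfsg.Spor Cfsg.Agent.H9 Cfsg.Agent.H33 Cfsg.Agent.H94 Cfsg.Agent.H33.Blk
  Cfsg.Agent.S5608

theorem passQ_0 : passQ cBQ_0 = EQ_0 := by decide +kernel

theorem passQ_1 : passQ cBQ_1 = EQ_1 := by decide +kernel

theorem passQ_2 : passQ cBQ_2 = EQ_2 := by decide +kernel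

end Cfsg.Agent.H33.B22
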