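import Cfsg.Agent.H33.Blk.Alg
import Cfsg.Agent.H33.B22.ColQ

/-!
# `M22` has a single 2-block (helper33)

The class data of `M22` (`clsQ`): the invariant `cdH`, the 10 representatives `rhoH j`.  The
parities of the coefficients of the squares of the class sums (`colQ_all`) are triangular enough
for `Blk.sameBlock_main`.
-/

set_option autoImplicit false

namespace Cfsg.Agent.H33.B22

open Cfsg Cfsg.Spor Cfsg.Agent.H9 Cfsg.Agent.H33 Cfsg.Agent.H94 Cfsg.Agent.H33.Blk

/-- the parities of the coefficients of the squares of the class sums -/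
def SnQ (i j : ℕ) : Bool := (EtabQ j).testBit (cdQN (fldG RRQ i))

/-- the values of the central characters modulo 2 -/
def epsQ (j : ℕ) : Bool := Nat.blt j 2

/-- a rank function making the squaring map triangular -/
def rkQ (j : ℕ) : ℕ := [0, 1, 1, 1, 0, 0, 1, 0, 0, 0].getD j 0

theorem finQ_chk : allB (fun i =>
    allB (fun j => !(SnQ i j) || (Nat.beq j 0 || Nat.blt (rkQ j) (rkQ i))) 10 &&
    Nat.beq (Nat.mod (sumB (fun j => if (SnQ i j && epsQ j) = true then 1 else 0) 10) 2)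
      (if epsQ i = true then 1 else 0)) 10 = true := by
  decide +kernel

theorem injQ_chk : allB (fun i => allB (fun j => Nat.beq i j ||
    !(Nat.beq (cdQN (fldG RRQ i)) (cdQN (fldG RRQ j)))) 10) 10 = true ∧
    cdQN (fldG RRQ 0) = 25368 ∧ chkInv (fldG RRQ 1) (fldG RRQ 1) = true := by decide +kernel

theorem cdH_rho {j : ℕ} (hj : j < 10) : cdH (rhoH j) = cdQN (fldG RRQ j) :=
  (cdQN_eq (rhoH_rep hj)).symm

theorem sumQ_fin (f : ℕ → ℕ) (n : ℕ) : (∑ j : Fin n, f j.1) = sumB f n := by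
  rw [Fin.sum_univ_eq_sum_range]
  induction n with
  | zero => rfl
  | succ n ih =>
    rw [Finset.sum_range_succ, ih]
    show sumB f n + f n = Nat.add (f n) (sumB f n)
    exact Nat.add_comm _ _

theorem fxQ_le (g : Equiv.Perm GolayPt) : fx g ≤ 24 := by
  unfold fx
  calc (Finset.univ.filter fun p => g p = p).card ≤ (Finset.univ : Finset GolayPt).card :=
        Finset.card_filter_le _ _
    _ = 24 := by rw [Finset.card_univ, card_golayPt]

theorem eq_one_of_cdQ {g : Equiv.Perm GolayPt} (h : cdQ g = 25368) : g = 1 := by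
  unfold cdQ sel22 at h
  have h1 := fxQ_le g
  have h2 := fxQ_le (g * g)
  have h3 := fxQ_le (g * (g * g))
  have h4 : cd3 g = 1 * fx g + (32 * fx (g * g) + 1024 * fx (g * (g * g))) := rfl
  have h24 : fx g = 24 := by
    cases hb : Nat.beq (cd3 g) 4356
    · rw [hb] at h
      simp only [cond_false] at h
      omega
    · rw [hb] at h
      simp only [cond_true] at h
      have e : Nat.add 65536 (Qf g) = 65536 + Qf g := rfl
      rw [e] at h
      omega
  unfold fx at h24
  have h6 : (Finset.univ.filter fun p => g p = p).card = (Finset.univ : Finset GolayPt).card := by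
    rw [h24, Finset.card_univ, card_golayPt]
  rw [Finset.card_filter_eq_iff] at h6
  exact Equiv.ext fun p => h6 p (Finset.mem_univ p)

/-- the class data of `M22` -/
noncomputable def clsQ : ClsData ↥M22 10 where
  cd := cdH
  rho := fun j => rhoH j.1
  cd_conj := cdH_conj
  cd_inv := cdH_inv
  cl := by
    intro g
    obtain ⟨k, hk, j, hj, h | h⟩ := clQ_main g.2
    · exact ⟨⟨j, hj⟩, ⟨k, hk⟩, Or.inl (Subtype.ext h)⟩
    · exact ⟨⟨j, hj⟩, ⟨k, hk⟩, Or.inr (Subtype.ext h)⟩
  inj := by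
    intro i j h
    have h' : cdH (rhoH i.1) = cdH (rhoH j.1) := h
    rw [cdH_rho i.2, cdH_rho j.2] at h'
    have h1 := (allB_iff _ _).mp ((allB_iff _ _).mp injQ_chk.1 i.1 i.2) j.1 j.2
    rw [h', Nat.beq_refl, Bool.not_true, Bool.or_false] at h1
    exact Fin.ext (Nat.eq_of_beq_eq_true h1)

theorem finQ_i {i : ℕ} (hi : i < 10) :
    allB (fun j => !(SnQ i j) || (Nat.beq j 0 || Nat.blt (rkQ j) (rkQ i))) 10 = true ∧
    Nat.beq (Nat.mod (sumB (fun j => if (SnQ i j && epsQ j) = true then 1 else 0) 10) 2)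
      (if epsQ i = true then 1 else 0) = true :=
  Bool.and_eq_true_iff.mp ((allB_iff _ _).mp finQ_chk i hi)

theorem rkQ_ok {i j : ℕ} (hi : i < 10) (hj : j < 10) (h : SnQ i j = true) :
    j = 0 ∨ rkQ j < rkQ i := by
  have h2 : (!(SnQ i j) || (Nat.beq j 0 || Nat.blt (rkQ j) (rkQ i))) = true :=
    (allB_iff _ _).mp (finQ_i hi).1 j hj
  rw [h, Bool.not_true, Bool.false_or] at h2
  rcases Bool.or_eq_true_iff.mp h2 with h3 | h3
  · exact Or.inl (Nat.eq_of_beq_eq_true h3)
  · exact Or.inr (Nat.blt_eq.mp h3)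

theorem epsQ_ok {i : ℕ} (hi : i < 10) :
    sumB (fun j => if (SnQ i j && epsQ j) = true then 1 else 0) 10 % 2
      = if epsQ i = true then 1 else 0 :=
  Nat.eq_of_beq_eq_true (finQ_i hi).2

theorem colQ_S [Fintype ↥M22] {i j : ℕ} (hi : i < 10) (hj : j < 10) :
    (Finset.univ.filter fun x : ↥M22 => cdH x = cdH (rhoH i)
      ∧ cdH (x⁻¹ * rhoH j) = cdH (rhoH i)).card % 2 = if SnQ i j = true then 1 else 0 := by
  rw [cdH_rho hi]
  exact colQ_all j hj (cdQN (fldG RRQ i))

theorem realQ_ok {j : ℕ} (hj : epsQ j = true) : (rhoH j)⁻¹ = rhoH j := by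
  have hj2 : j < 2 := Nat.blt_eq.mp hj
  rcases Nat.lt_succ_iff_lt_or_eq.mp hj2 with h | h
  · have h0 : j = 0 := by omega
    rw [h0]
    have e : rhoH 0 = 1 := Subtype.ext rhoQ_0
    rw [e, inv_one]
  · rw [h]
    have e : rhoH 1 * rhoH 1 = 1 :=
      Subtype.ext (sq_of_chk (rhoH_rep (by norm_num : 1 < 10)) injQ_chk.2.2)
    exact inv_eq_of_mul_eq_one_left e

/-- all irreducible characters of `M22` lie in one 2-block -/
theorem m22_sameBlock (M : Ideal AlgInt) (hM : IsPModular 2 M) (χ ψ : IrrCharacter ↥M22) :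
    SameBlock M (χ : ↥M22 → ℂ) (ψ : ↥M22 → ℂ) := by
  classical
  letI : Fintype ↥M22 := Fintype.ofFinite _
  refine sameBlock_main clsQ hM ?_ ?_ (fun i j => SnQ i.1 j.1) ?_ (fun j => epsQ j.1)
    (fun j => rkQ j.1) ?_ ?_ ?_ ?_ χ ψ
  · exact Subtype.ext rhoQ_0
  · intro x hx
    have h1 : cdH x = cdH (rhoH 0) := hx
    rw [cdH_rho (by norm_num), injQ_chk.2.1] at h1
    exact Subtype.ext (eq_one_of_cdQ h1)
  · intro i j
    exact colQ_S i.2 j.2
  · intro i j hS
    rcases rkQ_ok i.2 j.2 hS with h | h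
    · exact Or.inl (Fin.ext h)
    · exact Or.inr h
  · intro i
    have e := sumQ_fin (fun n => if (SnQ i.1 n && epsQ n) = true then 1 else 0) 10
    exact (congrArg (· % 2) e).trans (epsQ_ok i.2)
  · exact Nat.blt_eq.mpr (by norm_num)
  · intro j hj
    exact realQ_ok hj

end Cfsg.Agent.H33.B22
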