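import Cfsg.Agent.H33.B22.CLQ
import Cfsg.Agent.H33.Blk.Pass
import Cfsg.Agent.H33.Blk.Sqrt

/-!
# Parity masks for the squares of the class sums of `M22` modulo 2 (helper33)

The elements of square one of `M22` are the elements of the list `Tinv` (elements of square one of
`M24`) fixing the two points.  For an element `ρ` of `M22` and a value `κ` of the class invariant
`cdH`, the number of `x` with invariant `κ` such that `x⁻¹ * ρ` has invariant `κ` is computed
modulo 2 from packed data: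
* `colQI_pack`: `ρ = b * b` (a pass over the elements of square one);
* `colQS_pack`: `ρ = c * b * b` with `c` an involution commuting with `b`, conjugate in `M24` to
  the involution `r8e` whose square roots are enumerated in `Blk.Sqrt`;
* `colQN_pack`: `ρ` a 2-element without square roots.
-/

set_option autoImplicit false

namespace Cfsg.Agent.H33.B22

open Cfsg Cfsg.Spor Cfsg.Agent.H9 Cfsg.Agent.H33 Cfsg.Agent.H94 Cfsg.Agent.H33.Blk
  Cfsg.Agent.S5608

/-- the class invariant on `M22` -/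
noncomputable def cdH (x : ↥M22) : ℕ := cdQ x.1

theorem cdH_conj (g h : ↥M22) : cdH (h * g * h⁻¹) = cdH g := by
  obtain ⟨h24, hA, hB⟩ := mem_M22.mp h.2
  exact cdQ_conj h24 hA hB g.1

theorem cdH_inv (g : ↥M22) : cdH g⁻¹ = cdH g := cdQ_inv g.1

/-- the contribution of the list element `t` -/
def stepQ (B t : ℕ) : ℕ := bif fAB t then Nat.shiftLeft 1 (cdMQ B t) else 0

/-- the contribution of the chunk `c` -/
def chunkQ (B c : ℕ) : ℕ :=
  strictN (ichunk c) (fun K => parX (fun n => strictN (fldG K n) (stepQ B)) 208)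

/-- the parity mask of the invariants of the products `B * z`, `z` in the list fixing the two
points -/
def passQ (B : ℕ) : ℕ := parX (fun c => chunkQ B c) 208

theorem chunkQ_eq (B c : ℕ) :
    parX (fun n => stepQ B (Tinv (c * 208 + n))) 208 = chunkQ B c := by
  unfold chunkQ
  rw [strictN_eq]
  apply parX_congr
  intro n hn
  rw [strictN_eq, Tinv_chunk c n hn]

theorem passQ_eq (B : ℕ) : parX (fun n => stepQ B (Tinv n)) 43264 = passQ B := by
  have e1 : parX (fun n => stepQ B (Tinv n)) 43264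
      = parX (fun n => stepQ B (Tinv n)) (208 * 208) := rfl
  rw [e1, parX_mul, parX_congr (fun c _ => chunkQ_eq B c)]
  rfl

theorem colQ_count [Fintype ↥M22] [DecidableEq ↥M22] (b : ↥M22) (B : ℕ) (hB : Rep B b.1)
    (κ : ℕ) :
    (Finset.univ.filter fun z : ↥M22 => z * z = 1 ∧ cdH (b * z) = κ).card
      = countB (fun n => fAB (Tinv n) && Nat.beq (cdMQ B (Tinv n)) κ) 43264 := by
  apply card_filter_enum (fun z : ↥M22 => z * z = 1 ∧ cdH (b * z) = κ) 43264
    (fun n z => Rep (Tinv n) z.1) (fun n => fAB (Tinv n) && Nat.beq (cdMQ B (Tinv n)) κ)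
  · intro n hn hp
    simp only [Bool.and_eq_true] at hp
    obtain ⟨z, hz, hr⟩ := enumI_mem hn
    have hz22 : z.1 ∈ M22 := mem_M22.mpr ⟨z.2, (fAB_iff hr).mp hp.1⟩
    refine ⟨⟨z.1, hz22⟩, ⟨Subtype.ext (show z.1 * z.1 = 1 from congrArg Subtype.val hz), ?_⟩, hr⟩
    have h := Nat.eq_of_beq_eq_true hp.2
    rw [cdMQ_eq, cdQN_eq (rep_mulN hB hr)] at h
    exact h
  · intro m hm n hn a h1 h2
    exact Tinv_inj hm hn (canon_rep (Tinv_lt _) (Tinv_lt _) h1 h2)
  · rintro a ⟨h1, h3⟩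
    obtain ⟨h24, hA, hB'⟩ := mem_M22.mp a.2
    obtain ⟨n, hn, hr⟩ := enumI_surj ⟨a.1, h24⟩
      (Subtype.ext (show a.1 * a.1 = 1 from congrArg Subtype.val h1))
    have hr' : Rep (Tinv n) a.1 := hr
    refine ⟨n, hn, ?_, hr'⟩
    simp only [Bool.and_eq_true]
    refine ⟨(fAB_iff hr').mpr ⟨hA, hB'⟩, ?_⟩
    rw [cdMQ_eq, cdQN_eq (rep_mulN hB hr')]
    have h4 : cdQ (b.1 * a.1) = κ := h3
    rw [h4]
    exact Nat.beq_refl _
  · intro n a a' h1 h2
    exact Subtype.ext (rep_uniq h1 h2)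

theorem colQ_mask [Fintype ↥M22] [DecidableEq ↥M22] (b : ↥M22) (B : ℕ) (hB : Rep B b.1)
    (κ : ℕ) :
    (Finset.univ.filter fun z : ↥M22 => z * z = 1 ∧ cdH (b * z) = κ).card % 2
      = if (passQ B).testBit κ = true then 1 else 0 := by
  have h3 := colQ_count b B hB κ
  have h4 := testBit_parX (fun n => fAB (Tinv n)) (fun n => cdMQ B (Tinv n)) 43264 κ
  have h6 : (parX (fun n => stepQ B (Tinv n)) 43264).testBit κ
      = decide (countB (fun n => fAB (Tinv n) && Nat.beq (cdMQ B (Tinv n)) κ) 43264 % 2 = 1) := h4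
  rw [passQ_eq] at h6
  rw [h6, ← h3]
  exact mod_two_ite _

/-- the coefficients modulo 2 of the square of a class sum, at an element `b * b` -/
theorem colQ_gen [Fintype ↥M22] (b : ↥M22) (B : ℕ) (hB : Rep B b.1) (κ : ℕ) :
    (Finset.univ.filter fun x : ↥M22 => cdH x = κ ∧ cdH (x⁻¹ * (b * b)) = κ).card % 2
      = if (passQ B).testBit κ = true then 1 else 0 := by
  classical
  have h1 := par_gen (fun g : ↥M22 => cdH g = κ) (fun g h => by rw [cdH_conj])
    (fun g => by rw [cdH_inv]) b b rfl 0 (by simp)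
  have e : (Finset.univ.filter fun z : ↥M22 => z * z = b * b⁻¹ ∧ cdH (b * z) = κ)
      = (Finset.univ.filter fun z : ↥M22 => z * z = 1 ∧ cdH (b * z) = κ) := by
    apply Finset.filter_congr
    intro z _
    rw [mul_inv_cancel]
  rw [e] at h1
  rw [h1]
  exact colQ_mask b B hB κ

/-- an element of `M22` from packed data -/
theorem exists_eltQ {P Q : ℕ} (h : chkInv P Q = true) (hm : chkM24 P = true)
    (hf : fAB P = true) : ∃ b : ↥M22, Rep P b.1 ∧ Rep Q (b⁻¹ : ↥M22).1 :=
  ⟨⟨permOf P Q h, mem_M22.mpr ⟨permOf_mem_M24 P Q h hm, (fAB_iff (rep_permOf P Q h)).mp hf⟩⟩,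
    rep_permOf P Q h, rep_permOf_inv P Q h⟩

theorem colQI_pack [Fintype ↥M22] {B BI R E : ℕ} (hB : chkInv B BI = true)
    (hBm : chkM24 B = true) (hBf : fAB B = true) (hsq : mulN B B = R) (hpass : passQ B = E)
    {ρ : ↥M22} (hρ : Rep R ρ.1) (κ : ℕ) :
    (Finset.univ.filter fun x : ↥M22 => cdH x = κ ∧ cdH (x⁻¹ * ρ) = κ).card % 2
      = if E.testBit κ = true then 1 else 0 := by
  obtain ⟨b, hb, -⟩ := exists_eltQ hB hBm hBf
  have e : ρ = b * b := by
    apply Subtype.ext
    have h1 := rep_mulN hb hb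
    rw [hsq] at h1
    exact rep_uniq hρ h1
  rw [e, ← hpass]
  exact colQ_gen b B hb κ

/-! ### a column through the square roots of an involution -/

/-- the packed conjugates of the square roots of `r8` -/
def sqK (K KI n : ℕ) : ℕ := mulN K (mulN (fldG sqA n) KI)

/-- the parity mask of the invariants of the products `B * z`, `z` a square root fixing the two
points -/
def passS (K KI B : ℕ) : ℕ := parX (fun n => strictN (sqK K KI n) (stepQ B)) 224

theorem passS_eq (K KI B : ℕ) :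
    parX (fun n => bif fAB (sqK K KI n) then Nat.shiftLeft 1 (cdMQ B (sqK K KI n)) else 0) 224
      = passS K KI B := by
  unfold passS
  apply parX_congr
  intro n _
  rw [strictN_eq]
  rfl

theorem colQS_gen [Fintype ↥M22] (c b : ↥M22) (hcb : c * b = b * c) (hc : c * c = 1) (B : ℕ)
    (hB : Rep B b.1) (K KI : ℕ) (k : Equiv.Perm GolayPt) (hk : k ∈ M24) (hK : Rep K k)
    (hKI : Rep KI k⁻¹) (hck : c.1 = k * (r8e * k⁻¹)) (κ : ℕ) :
    (Finset.univ.filter fun x : ↥M22 => cdH x = κ ∧ cdH (x⁻¹ * (c * b * b)) = κ).card % 2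
      = if (passS K KI B).testBit κ = true then 1 else 0 := by
  classical
  have h1 := par_gen (fun g : ↥M22 => cdH g = κ) (fun g h => by rw [cdH_conj])
    (fun g => by rw [cdH_inv]) (c * b) b (by rw [← mul_assoc b c b, ← hcb]) 1
    (by rw [mul_inv_cancel_right, pow_one, pow_two, hc])
  have e : (Finset.univ.filter fun z : ↥M22 => z * z = c * b * b⁻¹ ∧ cdH (b * z) = κ)
      = (Finset.univ.filter fun z : ↥M22 => z * z = c ∧ cdH (b * z) = κ) := by
    apply Finset.filter_congr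
    intro z _
    rw [mul_inv_cancel_right]
  rw [e] at h1
  have hrepK : ∀ (n : ℕ) (z : Equiv.Perm GolayPt), Rep (fldG sqA n) z →
      Rep (sqK K KI n) (k * (z * k⁻¹)) := fun n z hz => rep_mulN hK (rep_mulN hz hKI)
  have h2 : (Finset.univ.filter fun z : ↥M22 => z * z = c ∧ cdH (b * z) = κ).card
      = countB (fun n => fAB (sqK K KI n) && Nat.beq (cdMQ B (sqK K KI n)) κ) 224 := by
    apply card_filter_enum (fun z : ↥M22 => z * z = c ∧ cdH (b * z) = κ) 224
      (fun n z => Rep (sqK K KI n) z.1)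
      (fun n => fAB (sqK K KI n) && Nat.beq (cdMQ B (sqK K KI n)) κ)
    · intro n hn hp
      simp only [Bool.and_eq_true] at hp
      obtain ⟨z, hzm, hzz, hr⟩ := enumA_mem hn
      have hr' := hrepK n z hr
      have hm24 : k * (z * k⁻¹) ∈ M24 := mul_mem hk (mul_mem hzm (inv_mem hk))
      have hm22 : k * (z * k⁻¹) ∈ M22 := mem_M22.mpr ⟨hm24, (fAB_iff hr').mp hp.1⟩
      refine ⟨⟨k * (z * k⁻¹), hm22⟩, ⟨?_, ?_⟩, hr'⟩
      · apply Subtype.ext
        show k * (z * k⁻¹) * (k * (z * k⁻¹)) = c.1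
        rw [hck, ← hzz]
        group
      · have h := Nat.eq_of_beq_eq_true hp.2
        rw [cdMQ_eq, cdQN_eq (rep_mulN hB hr')] at h
        exact h
    · intro m hm n hn a r1 r2
      obtain ⟨z1, -, -, q1⟩ := enumA_mem hm
      obtain ⟨z2, -, -, q2⟩ := enumA_mem hn
      have e1 : a.1 = k * (z1 * k⁻¹) := rep_uniq r1 (hrepK m z1 q1)
      have e2 : a.1 = k * (z2 * k⁻¹) := rep_uniq r2 (hrepK n z2 q2)
      have e3 : z1 = z2 := by
        have := e1.symm.trans e2
        exact mul_right_cancel (mul_left_cancel this)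
      rw [e3] at q1
      exact enumA_inj hm hn (canon_rep (fldG_lt _ _) (fldG_lt _ _) q1 q2)
    · rintro a ⟨a1, a2⟩
      obtain ⟨h24, hA, hB'⟩ := mem_M22.mp a.2
      have hz0 : k⁻¹ * a.1 * k ∈ M24 := mul_mem (mul_mem (inv_mem hk) h24) hk
      have hsq : k⁻¹ * a.1 * k * (k⁻¹ * a.1 * k) = r8e := by
        have h5 : a.1 * a.1 = k * (r8e * k⁻¹) := by
          rw [← hck]
          exact congrArg Subtype.val a1
        calc k⁻¹ * a.1 * k * (k⁻¹ * a.1 * k) = k⁻¹ * (a.1 * a.1) * k := by group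
          _ = r8e := by rw [h5]; group
      obtain ⟨n, hn, hr⟩ := enumA_surj hz0 hsq
      have hr' : Rep (sqK K KI n) a.1 := by
        have := hrepK n _ hr
        have e5 : k * (k⁻¹ * a.1 * k * k⁻¹) = a.1 := by group
        rwa [e5] at this
      refine ⟨n, hn, ?_, hr'⟩
      simp only [Bool.and_eq_true]
      refine ⟨(fAB_iff hr').mpr ⟨hA, hB'⟩, ?_⟩
      rw [cdMQ_eq, cdQN_eq (rep_mulN hB hr')]
      have h4 : cdQ (b.1 * a.1) = κ := a2
      rw [h4]
      exact Nat.beq_refl _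
    · intro n a a' r1 r2
      exact Subtype.ext (rep_uniq r1 r2)
  have h4 := testBit_parX (fun n => fAB (sqK K KI n)) (fun n => cdMQ B (sqK K KI n)) 224 κ
  rw [passS_eq] at h4
  rw [h1, h2, h4]
  exact mod_two_ite _

theorem colQS_pack [Fintype ↥M22] {B BI C R E K KI : ℕ} {c : ↥M22} (hC : Rep C c.1)
    (hCC : chkInv C C = true) (hB : chkInv B BI = true) (hBm : chkM24 B = true)
    (hBf : fAB B = true) (hK : chkInv K KI = true) (hKm : chkM24 K = true)
    (hCK : mulN K (mulN r8 KI) = C) (hcomm : commN C B = true) (hprod : mulN C (mulN B B) = R)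
    (hpass : passS K KI B = E) {ρ : ↥M22} (hρ : Rep R ρ.1) (κ : ℕ) :
    (Finset.univ.filter fun x : ↥M22 => cdH x = κ ∧ cdH (x⁻¹ * ρ) = κ).card % 2
      = if E.testBit κ = true then 1 else 0 := by
  obtain ⟨b, hb, -⟩ := exists_eltQ hB hBm hBf
  have e : ρ = c * b * b := by
    apply Subtype.ext
    have h1 := rep_mulN hC (rep_mulN hb hb)
    rw [hprod] at h1
    rw [mul_assoc]
    exact rep_uniq hρ h1
  have hcb : c * b = b * c := Subtype.ext (comm_of_commN hC hb hcomm)
  have hc : c * c = 1 := Subtype.ext (sq_of_chk hC hCC)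
  have hck : c.1 = permOf K KI hK * (r8e * (permOf K KI hK)⁻¹) := by
    have h1 := rep_mulN (rep_permOf K KI hK) (rep_mulN r8e_rep (rep_permOf_inv K KI hK))
    rw [hCK] at h1
    exact rep_uniq hC h1
  rw [e, ← hpass]
  exact colQS_gen c b hcb hc B hb K KI (permOf K KI hK) (permOf_mem_M24 K KI hK hKm)
    (rep_permOf K KI hK) (rep_permOf_inv K KI hK) hck κ

/-! ### columns of 2-elements without square roots -/

/-- squares in `M22` have the invariant of the square of a representative -/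
theorem cdQ_sq {z : Equiv.Perm GolayPt} (hz : z ∈ M22) :
    ∃ i < 10, cdQ (z * z) = cdQN (mulN (fldG RRQ i) (fldG RRQ i)) := by
  obtain ⟨k, hk, i, hi, h | h⟩ := clQ_main hz
  · obtain ⟨k24, kA, kB⟩ := mem_M22.mp hk
    refine ⟨i, hi, ?_⟩
    rw [cdQN_eq (rep_mulN (rhoQ_rep hi) (rhoQ_rep hi)), ← h]
    have e : k * z * k⁻¹ * (k * z * k⁻¹) = k * (z * z) * k⁻¹ := by group
    rw [e, cdQ_conj k24 kA kB]
  · obtain ⟨k24, kA, kB⟩ := mem_M22.mp hk
    refine ⟨i, hi, ?_⟩
    rw [cdQN_eq (rep_mulN (rhoQ_rep hi) (rhoQ_rep hi))]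
    have e : rhoQ i * rhoQ i = (k * (z * z) * k⁻¹)⁻¹ := by
      have e1 : rhoQ i = (k * z * k⁻¹)⁻¹ := by rw [h, inv_inv]
      rw [e1]
      group
    rw [e, cdQ_inv, cdQ_conj k24 kA kB]

theorem colQN_pack [Fintype ↥M22] {C : ℕ} (k : ℕ) (hk : fixN (pwN C (2 ^ k)) = 24)
    (hno : allB (fun i => !(Nat.beq (cdQN (mulN (fldG RRQ i) (fldG RRQ i))) (cdQN C))) 10 = true)
    {ρ : ↥M22} (hρ : Rep C ρ.1) (κ : ℕ) :
    (Finset.univ.filter fun x : ↥M22 => cdH x = κ ∧ cdH (x⁻¹ * ρ) = κ).card % 2 = 0 := by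
  classical
  have hck : ρ ^ (2 ^ k) = 1 := by
    apply Subtype.ext
    have h1 : ρ.1 ^ (2 ^ k) = 1 := eq_one_of_fixN (rep_pwN hρ (2 ^ k)) hk
    simpa using h1
  have h1 := par_gen (fun g : ↥M22 => cdH g = κ) (fun g h => by rw [cdH_conj])
    (fun g => by rw [cdH_inv]) ρ 1 (by rw [mul_one, one_mul]) k
    (by rw [inv_one, mul_one]; exact hck)
  simp only [mul_one, inv_one] at h1
  have hempty : (Finset.univ.filter fun z : ↥M22 => z * z = ρ ∧ cdH (1 * z) = κ) = ∅ := by
    rw [Finset.filter_eq_empty_iff]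
    rintro z - ⟨hz, -⟩
    obtain ⟨i, hi, hcd⟩ := cdQ_sq z.2
    have h2 := (allB_iff _ _).mp hno i hi
    have h3 : cdQ (z.1 * z.1) = cdQN C := by
      rw [cdQN_eq hρ]
      exact congrArg (fun u : ↥M22 => cdQ u.1) hz
    rw [← hcd, h3, Nat.beq_refl] at h2
    exact absurd h2 (by decide)
  rw [h1, hempty]
  rfl

end Cfsg.Agent.H33.B22
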