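import Cfsg.Agent.H33.Blk.Code

/-!
# A class invariant for the elements of `M22` (helper33)

`M22` is the stabiliser of the points `none` and `some 0` in `M24`.  The numbers of fixed points of
`g`, `g²`, `g³` separate its classes up to inversion, except for the two classes of elements of
order 4.  These are separated by `Qf g`: the number of pairs of points `(p, s)` with `s` in a
2-cycle and `p` in a 4-cycle of `g` such that the two cycles together with the two fixed points
`none`, `some 0` form a set of the code.  `cdQ` is the resulting invariant, `cdQN` its packed form.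
-/

set_option autoImplicit false

namespace Cfsg.Agent.H33.B22

open Cfsg Cfsg.Agent.H9 Cfsg.Agent.H33 Cfsg.Agent.H94 Cfsg.Agent.H33.Blk

open scoped Pointwise

/-- the two fixed points together with part of the orbits of `p` and `s` -/
def sset (g : Equiv.Perm GolayPt) (p s : GolayPt) : Finset GolayPt :=
  {none, some 0, p, g p, g (g p), g (g (g p)), s, g s}

/-- the condition on the pair `(p, s)` -/
def qP (g : Equiv.Perm GolayPt) (p s : GolayPt) : Prop :=
  g s ≠ s ∧ g (g s) = s ∧ g (g p) ≠ p ∧ g (g (g (g p))) = p ∧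
    sset g p s ∈ supports (golayCode : Set (GolayPt → ZMod 2))

open Classical in
/-- the indicator of the condition -/
noncomputable def qc (g : Equiv.Perm GolayPt) (p s : GolayPt) : ℕ := if qP g p s then 1 else 0

/-- the number of pairs satisfying the condition -/
noncomputable def Qf (g : Equiv.Perm GolayPt) : ℕ := ∑ s : GolayPt, ∑ p : GolayPt, qc g p s

theorem smul_sset {k : Equiv.Perm GolayPt} (hA : k none = none) (hB : k (some 0) = some 0)
    (g : Equiv.Perm GolayPt) (p s : GolayPt) :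
    k • sset g p s = sset (k * g * k⁻¹) (k p) (k s) := by
  have e : ∀ x : GolayPt, (k * g * k⁻¹) (k x) = k (g x) := fun x => by
    exact congrArg (fun y => k (g y)) (k.symm_apply_apply x)
  unfold sset
  rw [e, e, e, e]
  simp only [Finset.smul_finset_insert, Finset.smul_finset_singleton, Equiv.Perm.smul_def, hA, hB]

theorem qP_conj {k : Equiv.Perm GolayPt} (hk : k ∈ M24) (hA : k none = none)
    (hB : k (some 0) = some 0) (g : Equiv.Perm GolayPt) (p s : GolayPt) :
    qP (k * g * k⁻¹) (k p) (k s) ↔ qP g p s := by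
  have e : ∀ x : GolayPt, (k * g * k⁻¹) (k x) = k (g x) := fun x => by
    exact congrArg (fun y => k (g y)) (k.symm_apply_apply x)
  have hs : sset (k * g * k⁻¹) (k p) (k s) ∈ supports (golayCode : Set (GolayPt → ZMod 2))
      ↔ sset g p s ∈ supports (golayCode : Set (GolayPt → ZMod 2)) := by
    rw [← smul_sset hA hB]
    constructor
    · intro h
      have h2 := smul_mem_supports (inv_mem hk) h
      rwa [inv_smul_smul] at h2
    · intro h
      exact smul_mem_supports hk h
  unfold qP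
  rw [hs]
  simp only [e, ne_eq, EmbeddingLike.apply_eq_iff_eq]

theorem Qf_conj {k : Equiv.Perm GolayPt} (hk : k ∈ M24) (hA : k none = none)
    (hB : k (some 0) = some 0) (g : Equiv.Perm GolayPt) : Qf (k * g * k⁻¹) = Qf g := by
  classical
  unfold Qf
  calc ∑ s : GolayPt, ∑ p : GolayPt, qc (k * g * k⁻¹) p s
      = ∑ s : GolayPt, ∑ p : GolayPt, qc (k * g * k⁻¹) p (k s) :=
        (Equiv.sum_comp k (fun s => ∑ p : GolayPt, qc (k * g * k⁻¹) p s)).symm
    _ = ∑ s : GolayPt, ∑ p : GolayPt, qc (k * g * k⁻¹) (k p) (k s) :=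
        Finset.sum_congr rfl (fun s _ =>
          (Equiv.sum_comp k (fun p => qc (k * g * k⁻¹) p (k s))).symm)
    _ = ∑ s : GolayPt, ∑ p : GolayPt, qc g p s :=
        Finset.sum_congr rfl (fun s _ => Finset.sum_congr rfl (fun p _ => by
          unfold qc
          exact if_congr (qP_conj hk hA hB g p s) rfl rfl))

theorem qP_inv (g : Equiv.Perm GolayPt) (p s : GolayPt) : qP g⁻¹ p s ↔ qP g p s := by
  have e1 : ∀ x : GolayPt, g⁻¹ x = x ↔ g x = x := fun x => by
    rw [Equiv.Perm.inv_eq_iff_eq]; exact eq_comm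
  have e2 : ∀ x : GolayPt, g⁻¹ (g⁻¹ x) = x ↔ g (g x) = x := fun x => by
    rw [Equiv.Perm.inv_eq_iff_eq, Equiv.Perm.inv_eq_iff_eq]; exact eq_comm
  have e4 : ∀ x : GolayPt, g⁻¹ (g⁻¹ (g⁻¹ (g⁻¹ x))) = x ↔ g (g (g (g x))) = x := fun x => by
    rw [Equiv.Perm.inv_eq_iff_eq, Equiv.Perm.inv_eq_iff_eq, Equiv.Perm.inv_eq_iff_eq,
      Equiv.Perm.inv_eq_iff_eq]
    exact eq_comm
  have key : g (g s) = s → g (g (g (g p))) = p → sset g⁻¹ p s = sset g p s := by
    intro h2 h4
    have a1 : g⁻¹ s = g s := by rw [Equiv.Perm.inv_eq_iff_eq]; exact h2.symm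
    have a2 : g⁻¹ p = g (g (g p)) := by rw [Equiv.Perm.inv_eq_iff_eq]; exact h4.symm
    have a3 : g⁻¹ (g (g (g p))) = g (g p) := by rw [Equiv.Perm.inv_eq_iff_eq]
    have a4 : g⁻¹ (g (g p)) = g p := by rw [Equiv.Perm.inv_eq_iff_eq]
    unfold sset
    rw [a1, a2, a3, a4]
    ext x
    simp only [Finset.mem_insert, Finset.mem_singleton]
    tauto
  unfold qP
  constructor
  · rintro ⟨h1, h2, h3, h4, h5⟩
    have h2' := (e2 s).mp h2
    have h4' := (e4 p).mp h4
    refine ⟨fun h => h1 ((e1 s).mpr h), h2', fun h => h3 ((e2 p).mpr h), h4', ?_⟩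
    rw [← key h2' h4']
    exact h5
  · rintro ⟨h1, h2, h3, h4, h5⟩
    refine ⟨fun h => h1 ((e1 s).mp h), (e2 s).mpr h2, fun h => h3 ((e2 p).mp h), (e4 p).mpr h4, ?_⟩
    rw [key h2 h4]
    exact h5

theorem Qf_inv (g : Equiv.Perm GolayPt) : Qf g⁻¹ = Qf g := by
  classical
  unfold Qf
  exact Finset.sum_congr rfl (fun s _ => Finset.sum_congr rfl (fun p _ => by
    unfold qc
    exact if_congr (qP_inv g p s) rfl rfl))

/-! ### the packed form -/

/-- the mask of the set attached to the indices `p`, `s` -/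
def mk8 (P p s : ℕ) : ℕ :=
  Nat.lor (Nat.shiftLeft 1 23) (Nat.lor (Nat.shiftLeft 1 0) (Nat.lor (Nat.shiftLeft 1 p)
    (Nat.lor (Nat.shiftLeft 1 (lk P p)) (Nat.lor (Nat.shiftLeft 1 (lk P (lk P p)))
      (Nat.lor (Nat.shiftLeft 1 (lk P (lk P (lk P p)))) (Nat.lor (Nat.shiftLeft 1 s)
        (Nat.lor (Nat.shiftLeft 1 (lk P s)) 0)))))))

/-- the condition on `s` -/
def sN (P s : ℕ) : Bool := !(Nat.beq (lk P s) s) && Nat.beq (lk P (lk P s)) s

/-- the condition on `p`, given `s` -/
def pN (P p s : ℕ) : Bool :=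
  !(Nat.beq (lk P (lk P p)) p) && (Nat.beq (lk P (lk P (lk P (lk P p)))) p && isGolay (mk8 P p s))

/-- the packed form of `Qf` -/
def QN (P : ℕ) : ℕ :=
  sumB (fun s => bif sN P s then sumB (fun p => cond (pN P p s) 1 0) 24 else 0) 24

theorem sum_gpt (F : ℕ → ℕ) : ∑ p : GolayPt, F (gIdx p) = sumB F 24 := by
  have h1 : ∑ p : GolayPt, F (gIdx p) = ∑ i ∈ Finset.range 24, F i := by
    apply Finset.sum_nbij' (fun p => gIdx p) (fun i => gPt i)
    · intro p _
      exact Finset.mem_range.mpr (gIdx_lt p)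
    · intro i _
      exact Finset.mem_univ _
    · intro p _
      exact gPt_gIdx p
    · intro i hi
      exact gIdx_gPt (Finset.mem_range.mp hi)
    · intro p _
      rfl
  rw [h1]
  have h2 : ∀ n : ℕ, ∑ i ∈ Finset.range n, F i = sumB F n := by
    intro n
    induction n with
    | zero => rfl
    | succ n ih =>
      rw [Finset.sum_range_succ, ih]
      show sumB F n + F n = Nat.add (F n) (sumB F n)
      exact Nat.add_comm _ _
  exact h2 24

theorem fs_bit {i : ℕ} (hi : i < 24) (m : ℕ) :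
    fs (Nat.lor (Nat.shiftLeft 1 i) m) = insert (gPt i) (fs m) := by
  ext x
  rw [mem_fs, Finset.mem_insert, mem_fs]
  have e : Nat.lor (Nat.shiftLeft 1 i) m = (1 <<< i) ||| m := rfl
  rw [e, Nat.testBit_lor, Nat.one_shiftLeft, Nat.testBit_two_pow, Bool.or_eq_true, decide_eq_true_eq]
  constructor
  · rintro (h | h)
    · left
      rw [h, gPt_gIdx]
    · exact Or.inr h
  · rintro (h | h)
    · left
      rw [h, gIdx_gPt hi]
    · exact Or.inr h

theorem fs_zero : fs 0 = ∅ := by
  ext x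
  rw [mem_fs]
  simp

theorem bit_lt {i : ℕ} (hi : i < 24) : Nat.shiftLeft 1 i < 2 ^ 24 := by
  have e : Nat.shiftLeft 1 i = 1 <<< i := rfl
  rw [e, Nat.one_shiftLeft]
  exact Nat.pow_lt_pow_right (by norm_num) hi

theorem lor_lt {a b : ℕ} (ha : a < 2 ^ 24) (hb : b < 2 ^ 24) : Nat.lor a b < 2 ^ 24 :=
  Nat.or_lt_two_pow ha hb

theorem lk_rep_lt {P : ℕ} {g : Equiv.Perm GolayPt} (h : Rep P g) (x : GolayPt) :
    lk P (gIdx x) < 24 := by
  rw [← h x]
  exact gIdx_lt _

theorem qP_iff {P : ℕ} {g : Equiv.Perm GolayPt} (h : Rep P g) (p s : GolayPt) :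
    qP g p s ↔ (sN P (gIdx s) && pN P (gIdx p) (gIdx s)) = true := by
  have hg : ∀ x y : GolayPt, g x = y ↔ lk P (gIdx x) = gIdx y := fun x y => by
    rw [← h x]
    exact ⟨fun e => congrArg gIdx e, fun e => gIdx_injective e⟩
  have i1 : gIdx (g p) = lk P (gIdx p) := h p
  have i2 : gIdx (g (g p)) = lk P (lk P (gIdx p)) := by rw [h (g p), i1]
  have i3 : gIdx (g (g (g p))) = lk P (lk P (lk P (gIdx p))) := by rw [h (g (g p)), i2]
  have j1 : gIdx (g s) = lk P (gIdx s) := h s
  have hset : sset g p s = fs (mk8 P (gIdx p) (gIdx s)) := by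
    unfold mk8
    rw [fs_bit (by norm_num), fs_bit (by norm_num), fs_bit (gIdx_lt p),
      fs_bit (lk_rep_lt h p), fs_bit (by rw [← i1]; exact lk_rep_lt h (g p)),
      fs_bit (by rw [← i2]; exact lk_rep_lt h (g (g p))), fs_bit (gIdx_lt s),
      fs_bit (lk_rep_lt h s), fs_zero, ← i3, ← i2, ← i1, ← j1]
    simp only [gPt_gIdx]
    rfl
  have hlt : mk8 P (gIdx p) (gIdx s) < 2 ^ 24 := by
    unfold mk8
    exact lor_lt (bit_lt (by norm_num)) (lor_lt (bit_lt (by norm_num)) (lor_lt (bit_lt (gIdx_lt p))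
      (lor_lt (bit_lt (lk_rep_lt h p)) (lor_lt (bit_lt (by rw [← i1]; exact lk_rep_lt h (g p)))
        (lor_lt (bit_lt (by rw [← i2]; exact lk_rep_lt h (g (g p)))) (lor_lt (bit_lt (gIdx_lt s))
          (lor_lt (bit_lt (lk_rep_lt h s)) (by norm_num))))))))
  unfold qP sN pN
  rw [hset, fs_mem_supports_iff hlt]
  simp only [Bool.and_eq_true, Bool.not_eq_true', ne_eq]
  have b1 : ∀ a b : ℕ, Nat.beq a b = true ↔ a = b := fun a b =>
    ⟨Nat.eq_of_beq_eq_true, fun e => by rw [e]; exact Nat.beq_refl _⟩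
  have b0 : ∀ a b : ℕ, Nat.beq a b = false ↔ ¬ a = b := fun a b => by
    constructor
    · intro hf e
      rw [(b1 a b).mpr e] at hf
      exact Bool.noConfusion hf
    · intro hne
      cases hc : Nat.beq a b
      · rfl
      · exact absurd ((b1 a b).mp hc) hne
  rw [b0, b1, b0, b1, hg s s, hg (g s) s, j1, hg (g p) p, i1, hg (g (g (g p))) p, i3]
  tauto

theorem sumB_zero (n : ℕ) : sumB (fun _ => 0) n = 0 := by
  induction n with
  | zero => rfl
  | succ n ih =>
    show Nat.add 0 (sumB (fun _ => 0) n) = 0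
    rw [ih]

theorem QN_eq {P : ℕ} {g : Equiv.Perm GolayPt} (h : Rep P g) : QN P = Qf g := by
  classical
  unfold QN Qf
  rw [← sum_gpt]
  apply Finset.sum_congr rfl
  intro s _
  have e : ∀ p : GolayPt, qc g p s = cond (sN P (gIdx s) && pN P (gIdx p) (gIdx s)) 1 0 := by
    intro p
    unfold qc
    by_cases hq : qP g p s
    · rw [if_pos hq, (qP_iff h p s).mp hq]
      rfl
    · rw [if_neg hq]
      have : (sN P (gIdx s) && pN P (gIdx p) (gIdx s)) = false := by
        rw [Bool.eq_false_iff]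
        exact fun hc => hq ((qP_iff h p s).mpr hc)
      rw [this]
      rfl
  rw [Finset.sum_congr rfl (fun p _ => e p)]
  rw [sum_gpt (fun i => cond (sN P (gIdx s) && pN P i (gIdx s)) 1 0)]
  cases hs : sN P (gIdx s)
  · simp only [Bool.false_and, cond_false]
    exact (sumB_zero 24).symm
  · simp only [Bool.true_and, cond_true]

/-! ### the invariant -/

/-- selection: the slow part is used for one value of the fast part only -/
def sel22 (s slow : ℕ) : ℕ := bif Nat.beq s 4356 then Nat.add 65536 slow else s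

/-- the invariant -/
noncomputable def cdQ (g : Equiv.Perm GolayPt) : ℕ := sel22 (cd3 g) (Qf g)

/-- the packed form of the invariant -/
def cdQN (P : ℕ) : ℕ := strictN (cd3N P) (fun s => sel22 s (QN P))

theorem cdQN_eq {P : ℕ} {g : Equiv.Perm GolayPt} (h : Rep P g) : cdQN P = cdQ g := by
  unfold cdQN cdQ
  rw [strictN_eq, cd3N_eq h, QN_eq h]

theorem cd3_conj (g k : Equiv.Perm GolayPt) : cd3 (k * g * k⁻¹) = cd3 g := by
  have e1 : k * g * k⁻¹ * (k * g * k⁻¹) = k * (g * g) * k⁻¹ := by group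
  have e2 : k * g * k⁻¹ * (k * (g * g) * k⁻¹) = k * (g * (g * g)) * k⁻¹ := by group
  unfold cd3
  rw [e1, e2, fx_conj, fx_conj, fx_conj]

theorem cd3_inv (g : Equiv.Perm GolayPt) : cd3 g⁻¹ = cd3 g := by
  have e1 : g⁻¹ * g⁻¹ = (g * g)⁻¹ := by group
  have e2 : g⁻¹ * (g * g)⁻¹ = (g * (g * g))⁻¹ := by group
  unfold cd3
  rw [e1, e2, fx_inv, fx_inv, fx_inv]

theorem cdQ_conj {k : Equiv.Perm GolayPt} (hk : k ∈ M24) (hA : k none = none)
    (hB : k (some 0) = some 0) (g : Equiv.Perm GolayPt) : cdQ (k * g * k⁻¹) = cdQ g := by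
  unfold cdQ
  rw [cd3_conj, Qf_conj hk hA hB]

theorem cdQ_inv (g : Equiv.Perm GolayPt) : cdQ g⁻¹ = cdQ g := by
  unfold cdQ
  rw [cd3_inv, Qf_inv]

/-- the invariant of a product of packed permutations -/
def cdMQ (B z : ℕ) : ℕ := strictN (mulN B z) cdQN

theorem cdMQ_eq (B z : ℕ) : cdMQ B z = cdQN (mulN B z) := by
  unfold cdMQ
  rw [strictN_eq]

end Cfsg.Agent.H33.B22
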